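import Cfsg.Agent.Lib.H08.Fis.Prim

/-!
# Maximal commuting sets of transpositions
-/

set_option autoImplicit false

namespace Cfsg.Agent.H08.Fis

open Cfsg Cfsg.Agent.H25

variable {G : Type*} [Group G] {D : Set G}

theorem normalizer_of_image {E : Set G} {g : G} (h : (fun x => g * x * g⁻¹) '' E = E) :
    g ∈ Subgroup.normalizer E := by
  rw [Subgroup.mem_set_normalizer_iff]
  intro n
  constructor
  · intro hn
    rw [← h]
    exact ⟨n, hn, rfl⟩
  · intro hn
    rw [← h] at hn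
    obtain ⟨m, hm, hmn⟩ := hn
    have : m = n := mul_left_cancel (mul_right_cancel hmn)
    rwa [← this]

/-- The subgroup generated by commuting transpositions has exponent at most two. -/
theorem closure_sq (hT : TTS D) {E : Set G} (hE : E ⊆ D) (hc : ∀ a ∈ E, ∀ b ∈ E, Commute a b) :
    ∀ x ∈ Subgroup.closure E, x * x = 1 := by
  have h1 : Subgroup.closure E ≤ Subgroup.centralizer E := by
    rw [Subgroup.closure_le]
    intro a ha
    rw [SetLike.mem_coe, Subgroup.mem_centralizer_iff]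
    intro b hb
    exact (hc a ha b hb).symm
  have h2 : Subgroup.closure E ≤ Subgroup.centralizer (Subgroup.closure E : Set G) := by
    rw [Subgroup.closure_le]
    intro a ha
    rw [SetLike.mem_coe, Subgroup.mem_centralizer_iff]
    intro b hb
    exact (Subgroup.mem_centralizer_iff.mp (h1 hb) a ha).symm
  intro x hx
  induction hx using Subgroup.closure_induction with
  | mem y hy => exact hT.sq y (hE hy)
  | one => simp
  | mul y z hy hz ihy ihz =>
      have hyz : z * y = y * z := Subgroup.mem_centralizer_iff.mp (h2 hy) z hz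
      calc y * z * (y * z) = y * (z * y) * z := by group
        _ = y * y * (z * z) := by rw [hyz]; group
        _ = 1 := by rw [ihy, ihz, one_mul]
  | inv y hy ih =>
      rw [← mul_inv_rev, ih, inv_one]

/-- Two members of `D` in a subgroup of exponent a power of two commute. -/
theorem commute_of_two_power (hT : TTS D) {x y : G} (hx : x ∈ D) (hy : y ∈ D) {k : ℕ}
    (h : (x * y) ^ (2 ^ k) = 1) : Commute x y := by
  by_contra hn
  have h3 := cube_of_nb hT hx hy hn
  have h1 : orderOf (x * y) ∣ 2 ^ k := orderOf_dvd_of_pow_eq_one h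
  have h2 : orderOf (x * y) ∣ 3 ^ 1 := by
    rw [pow_one]
    exact orderOf_dvd_of_pow_eq_one h3
  have h4 : orderOf (x * y) ∣ Nat.gcd (2 ^ k) (3 ^ 1) := Nat.dvd_gcd h1 h2
  have h5 : Nat.gcd (2 ^ k) (3 ^ 1) = 1 := Nat.Coprime.pow _ _ (by norm_num)
  rw [h5, Nat.dvd_one, orderOf_eq_one_iff] at h4
  apply hn
  have h6 : y = x := by
    have := eq_inv_of_mul_eq_one_right h4
    rwa [hT.inv_eq hx] at this
  rw [h6]

/-- Two commuting sets of maximal size inside a subgroup `X` are conjugate in `X`. -/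
theorem conj_max_in_subgroup [Finite G] (hT : TTS D) {E E' : Set G} (hE : E ⊆ D)
    (hc : ∀ a ∈ E, ∀ b ∈ E, Commute a b)
    (hmax : ∀ E' : Set G, E' ⊆ D → (∀ a ∈ E', ∀ b ∈ E', Commute a b) → E'.ncard ≤ E.ncard)
    (hE' : E' ⊆ D) (hc' : ∀ a ∈ E', ∀ b ∈ E', Commute a b) (hcard : E'.ncard = E.ncard)
    (X : Subgroup G) (hEX : E ⊆ X) (hE'X : E' ⊆ X) :
    ∃ k ∈ X, (fun x => k * x * k⁻¹) '' E' = E := by
  have hP : ∀ {F : Set G}, F ⊆ D → (∀ a ∈ F, ∀ b ∈ F, Commute a b) →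
      IsPGroup 2 ((Subgroup.closure F).subgroupOf X) := by
    intro F hF hcF g
    refine ⟨1, ?_⟩
    apply Subtype.ext
    apply Subtype.ext
    have h1 : ((g : X) : G) ∈ Subgroup.closure F := Subgroup.mem_subgroupOf.mp g.2
    have h2 := closure_sq hT hF hcF _ h1
    simp [pow_two, h2]
  obtain ⟨T, hTle⟩ := (hP hE hc).exists_le_sylow
  obtain ⟨T', hTle'⟩ := (hP hE' hc').exists_le_sylow
  obtain ⟨k, hk⟩ := MulAction.exists_smul_eq X T' T
  have hTm : ∀ y ∈ E', ∀ hy : y ∈ X, k * (⟨y, hy⟩ : X) * k⁻¹ ∈ T := by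
    intro y hyE hy
    have h1 : (⟨y, hy⟩ : X) ∈ T' := hTle' (Subgroup.mem_subgroupOf.mpr (Subgroup.subset_closure hyE))
    rw [← hk, ← SetLike.mem_coe, Sylow.coe_smul]
    exact ⟨_, h1, rfl⟩
  set S : Set G := {y | y ∈ D ∧ ∃ hy : y ∈ X, (⟨y, hy⟩ : X) ∈ T} with hS
  have hSc : ∀ a ∈ S, ∀ b ∈ S, Commute a b := by
    rintro a ⟨ha, hax, haT⟩ b ⟨hb, hbx, hbT⟩
    have h1 : (⟨a, hax⟩ : X) * ⟨b, hbx⟩ ∈ T := T.mul_mem haT hbT
    obtain ⟨n, hn⟩ := T.2 ⟨_, h1⟩
    refine commute_of_two_power hT ha hb (k := n) ?_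
    have := congrArg (fun z : T => (((z : X) : G))) hn
    simpa using this
  have hES : E ⊆ S := by
    intro y hy
    exact ⟨hE hy, hEX hy, hTle (Subgroup.mem_subgroupOf.mpr (Subgroup.subset_closure hy))⟩
  have hSE : S = E :=
    (Set.eq_of_subset_of_ncard_le hES (hmax S (fun _ h => h.1) hSc) (Set.toFinite _)).symm
  refine ⟨k, k.2, ?_⟩
  have hsub : (fun x => (k : G) * x * (k : G)⁻¹) '' E' ⊆ E := by
    rintro _ ⟨y, hy, rfl⟩
    rw [← hSE]
    have h1 := hTm y hy (hE'X hy)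
    refine ⟨hT.conj _ _ (hE' hy), X.mul_mem (X.mul_mem k.2 (hE'X hy)) (X.inv_mem k.2), ?_⟩
    exact h1
  apply Set.eq_of_subset_of_ncard_le hsub
  rw [Set.ncard_image_of_injective, hcard]
  intro p q h
  simpa using h

/-- Sylow subgroups normalize maximal commuting sets. -/
theorem sylow_normalizes [Finite G] (hT : TTS D) {E : Set G} (hE : E ⊆ D)
    (hc : ∀ a ∈ E, ∀ b ∈ E, Commute a b)
    (hmax : ∀ E' : Set G, E' ⊆ D → (∀ a ∈ E', ∀ b ∈ E', Commute a b) → E'.ncard ≤ E.ncard) :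
    ∃ P : Sylow 2 G, (P : Subgroup G) ≤ Subgroup.normalizer E := by
  have hP : IsPGroup 2 (Subgroup.closure E) := by
    intro g
    refine ⟨1, ?_⟩
    apply Subtype.ext
    have h2 := closure_sq hT hE hc _ g.2
    simp [pow_two, h2]
  obtain ⟨P, hPle⟩ := hP.exists_le_sylow
  refine ⟨P, ?_⟩
  set S : Set G := {y | y ∈ D ∧ y ∈ P} with hS
  have hSc : ∀ a ∈ S, ∀ b ∈ S, Commute a b := by
    rintro a ⟨ha, haT⟩ b ⟨hb, hbT⟩
    have h1 : a * b ∈ P := P.1.mul_mem haT hbT
    obtain ⟨n, hn⟩ := P.2 ⟨_, h1⟩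
    refine commute_of_two_power hT ha hb (k := n) ?_
    have := congrArg (fun z : P => (z : G)) hn
    simpa using this
  have hES : E ⊆ S := fun y hy => ⟨hE hy, hPle (Subgroup.subset_closure hy)⟩
  have hSE : S = E :=
    (Set.eq_of_subset_of_ncard_le hES (hmax S (fun _ h => h.1) hSc) (Set.toFinite _)).symm
  intro g hg
  apply normalizer_of_image
  have hsub : ∀ g ∈ P, (fun x => g * x * g⁻¹) '' E ⊆ E := by
    rintro g hg _ ⟨y, hy, rfl⟩
    rw [← hSE]
    exact ⟨hT.conj _ _ (hE hy), P.1.mul_mem (P.1.mul_mem hg (hPle (Subgroup.subset_closure hy))) (P.1.inv_mem hg)⟩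
  apply Set.eq_of_subset_of_ncard_le (hsub g hg)
  rw [Set.ncard_image_of_injective]
  intro p q h
  simpa using h

/-- Double transitivity of the normalizer on a maximal commuting set. -/
theorem normalizer_two_trans [Finite G] (hD : IsThreeTranspositionClass D)
    (hT1 : ∀ x ∈ D, ∀ y₀ ∈ Nb D x, ∀ y₁ ∈ Nb D x, ∃ g ∈ Subgroup.closure (Nb D x), g * y₀ * g⁻¹ = y₁)
    {E : Set G} (hE : E ⊆ D) (hc : ∀ a ∈ E, ∀ b ∈ E, Commute a b)
    (hmax : ∀ E' : Set G, E' ⊆ D → (∀ a ∈ E', ∀ b ∈ E', Commute a b) → E'.ncard ≤ E.ncard)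
    {a b c d : G} (ha : a ∈ E) (hb : b ∈ E) (hc' : c ∈ E) (hd : d ∈ E) (hab : a ≠ b) (hcd : c ≠ d) :
    ∃ g ∈ Subgroup.normalizer E, g * a * g⁻¹ = c ∧ g * b * g⁻¹ = d := by
  have hT := TTS.of_class hD
  -- conjugates of `E`
  have himg_sub : ∀ g : G, (fun x => g * x * g⁻¹) '' E ⊆ D := by
    rintro g _ ⟨y, hy, rfl⟩
    exact hT.conj g y (hE hy)
  have himg_c : ∀ g : G, ∀ p ∈ (fun x => g * x * g⁻¹) '' E, ∀ q ∈ (fun x => g * x * g⁻¹) '' E, Commute p q := by
    rintro g _ ⟨y, hy, rfl⟩ _ ⟨z, hz, rfl⟩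
    exact (commute_conj_iff g).mpr (hc y hy z hz)
  have himg_card : ∀ g : G, ((fun x => g * x * g⁻¹) '' E).ncard = E.ncard := by
    intro g
    apply Set.ncard_image_of_injective
    intro p q h
    simpa using h
  -- a first element of the normalizer moving `a` to `c`
  obtain ⟨x, hx⟩ := TTS.class_isConj hD (hE ha) (hE hc')
  have hcent : ∀ z : G, ∀ F : Set G, (∀ p ∈ F, ∀ q ∈ F, Commute p q) → z ∈ F →
      F ⊆ (Subgroup.centralizer {z} : Subgroup G) := by
    intro z F hF hz y hy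
    rw [SetLike.mem_coe, Subgroup.mem_centralizer_iff]
    intro w hw
    rw [Set.mem_singleton_iff.mp hw]
    exact hF z hz y hy
  obtain ⟨k, hk, hkim⟩ := conj_max_in_subgroup hT hE hc hmax (himg_sub x) (himg_c x) (himg_card x)
    (Subgroup.centralizer {c}) (hcent c E hc hc')
    (hcent c _ (himg_c x) ⟨a, ha, hx⟩)
  have hkc : k * c * k⁻¹ = c := by
    have := Subgroup.mem_centralizer_iff.mp hk c rfl
    rw [← this]
    group
  set h := k * x with hh
  have hhim : (fun y => h * y * h⁻¹) '' E = E := by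
    show img h E = E
    rw [hh, ← img_img]
    exact hkim
  have hha : h * a * h⁻¹ = c := by
    rw [hh, ← hkc, ← hx]
    group
  -- now `b' = h b h⁻¹`
  set b' := h * b * h⁻¹ with hb'
  have hb'E : b' ∈ E := by
    rw [← hhim]
    exact ⟨b, hb, rfl⟩
  have hb'c : b' ≠ c := by
    intro h1
    rw [← hha] at h1
    exact hab (mul_left_cancel (mul_right_cancel h1)).symm
  have hb'N : b' ∈ Nb D c := ⟨hE hb'E, hb'c, hc c hc' b' hb'E⟩
  have hdN : d ∈ Nb D c := ⟨hE hd, hcd.symm, hc c hc' d hd⟩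
  obtain ⟨u, hu, hub⟩ := hT1 c (hE hc') b' hb'N d hdN
  have huc : u * c * u⁻¹ = c := by
    have hle : Subgroup.closure (Nb D c) ≤ Subgroup.centralizer {c} := by
      rw [Subgroup.closure_le]
      intro y hy
      rw [SetLike.mem_coe, Subgroup.mem_centralizer_iff]
      rintro _ rfl
      exact hy.2.2
    have := Subgroup.mem_centralizer_iff.mp (hle hu) c rfl
    rw [← this]
    group
  -- the centralizer of `c` and `d`
  set X : Subgroup G := Subgroup.centralizer {c} ⊓ Subgroup.centralizer {d} with hX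
  have hinX : ∀ F : Set G, (∀ p ∈ F, ∀ q ∈ F, Commute p q) → c ∈ F → d ∈ F → F ⊆ (X : Subgroup G) := by
    intro F hF hcF hdF y hy
    exact ⟨hcent c F hF hcF hy, hcent d F hF hdF hy⟩
  obtain ⟨l, hl, hlim⟩ := conj_max_in_subgroup hT hE hc hmax (himg_sub u) (himg_c u) (himg_card u) X
    (hinX E hc hc' hd) (hinX _ (himg_c u) ⟨c, hc', huc⟩ ⟨b', hb'E, hub⟩)
  have hlc : l * c * l⁻¹ = c := by
    have := Subgroup.mem_centralizer_iff.mp hl.1 c rfl
    rw [← this]
    group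
  have hld : l * d * l⁻¹ = d := by
    have := Subgroup.mem_centralizer_iff.mp hl.2 d rfl
    rw [← this]
    group
  refine ⟨l * u * h, normalizer_of_image ?_, ?_, ?_⟩
  · show img (l * u * h) E = E
    rw [← img_img, ← img_img]
    have h1 : img h E = E := hhim
    rw [h1]
    exact hlim
  · calc l * u * h * a * (l * u * h)⁻¹ = l * (u * (h * a * h⁻¹) * u⁻¹) * l⁻¹ := by group
      _ = c := by rw [hha, huc, hlc]
  · calc l * u * h * b * (l * u * h)⁻¹ = l * (u * (h * b * h⁻¹) * u⁻¹) * l⁻¹ := by group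
      _ = d := by rw [← hb', hub, hld]

end Cfsg.Agent.H08.Fis
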