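import Cfsg.Agent.Lib.H08.Fis.Prim
import Cfsg.Agent.Lib.H08.Basic

/-!
# Normalizing a Sylow 3-subgroup by a transposition

Working with weak 3-transposition sets (no order condition), so that images in quotient groups
are again of the same kind.
-/

set_option autoImplicit false

namespace Cfsg.Agent.H08.Fis

open Cfsg

open scoped commutatorElement

variable {G : Type*} [Group G]

/-- Weak 3-transposition set: closed under conjugation, squares trivial, non-commuting pairs have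
product of order dividing three. -/
structure WT (D : Set G) : Prop where
  sq : ∀ a ∈ D, a * a = 1
  cube : ∀ a ∈ D, ∀ b ∈ D, ¬ Commute a b → (a * b) ^ 3 = 1
  conj : ∀ g : G, ∀ a ∈ D, g * a * g⁻¹ ∈ D

theorem comm_of_sq1 {x y : G} (hx : x * x = 1) (hy : y * y = 1) (hxy : x * y * (x * y) = 1) :
    x * y = y * x := by
  have a1 : x * y = (x * y)⁻¹ := eq_inv_of_mul_eq_one_left hxy
  have a2 : y * x = (x * y)⁻¹ := eq_inv_of_mul_eq_one_left (by
    calc y * x * (x * y) = y * (x * x) * y := by group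
      _ = 1 := by rw [hx, mul_one, hy])
  exact a1.trans a2.symm

theorem wt_commute_of_two_power {D : Set G} (hW : WT D) {x y : G} (hx : x ∈ D) (hy : y ∈ D) {k : ℕ}
    (h : (x * y) ^ (2 ^ k) = 1) : Commute x y := by
  by_contra hn
  have h3 := hW.cube x hx y hy hn
  have h1 : orderOf (x * y) ∣ 2 ^ k := orderOf_dvd_of_pow_eq_one h
  have h2 : orderOf (x * y) ∣ 3 ^ 1 := by
    rw [pow_one]
    exact orderOf_dvd_of_pow_eq_one h3
  have h4 : orderOf (x * y) ∣ Nat.gcd (2 ^ k) (3 ^ 1) := Nat.dvd_gcd h1 h2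
  have h5 : Nat.gcd (2 ^ k) (3 ^ 1) = 1 := Nat.Coprime.pow _ _ (by norm_num)
  rw [h5, Nat.dvd_one, orderOf_eq_one_iff] at h4
  apply hn
  have hyi : y⁻¹ = y := inv_eq_of_mul_eq_one_left (hW.sq y hy)
  have h6 : x = y := by
    have := eq_inv_of_mul_eq_one_left h4
    rwa [hyi] at this
  rw [h6]

/-- A member of `D` congruent to `d` modulo a normal 2-subgroup has the same non-commuting
partners. -/
theorem wt_not_commute_of_congr {D : Set G} (hW : WT D) {K : Subgroup G} [hn : K.Normal]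
    (hK : IsPGroup 2 K) {d f e : G} (hd : d ∈ D) (hf : f ∈ D) (he : e ∈ D) (hdf : ¬ Commute d f)
    (hed : e * d ∈ K) : ¬ Commute e f := by
  intro hc
  apply hdf
  have hee := hW.sq e he
  have hff := hW.sq f hf
  have hei : e⁻¹ = e := inv_eq_of_mul_eq_one_left hee
  have hfi : f⁻¹ = f := inv_eq_of_mul_eq_one_left hff
  set w := e * d with hw
  have hdw : d = e * w := by rw [hw, ← mul_assoc, hee, one_mul]
  have hc' : e * f = f * e := hc
  have h2 : (d * f) * (d * f) = (e * w * e⁻¹) * (f * w * f⁻¹) := by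
    rw [hei, hfi, hdw]
    calc e * w * f * (e * w * f) = e * w * (f * e) * w * f := by group
      _ = e * w * (e * f) * w * f := by rw [hc']
      _ = _ := by group
  have h3 : (d * f) * (d * f) ∈ K := by
    rw [h2]
    exact K.mul_mem (hn.conj_mem _ hed _) (hn.conj_mem _ hed _)
  obtain ⟨n, hn⟩ := hK ⟨_, h3⟩
  have h4 : ((d * f) * (d * f)) ^ (2 ^ n) = 1 := by
    have := congrArg (fun z : K => (z : G)) hn
    simpa using this
  apply wt_commute_of_two_power hW hd hf (k := n + 1)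
  rw [pow_succ', pow_mul]
  rw [pow_two]
  exact h4

/-- Members of `D` congruent modulo an exponent-two normal subgroup: conjugate by it. -/
theorem wt_orbit {D : Set G} (hW : WT D) {K : Subgroup G} [hnK : K.Normal] (hK : ∀ x ∈ K, x * x = 1)
    {d f e : G} (hd : d ∈ D) (hf : f ∈ D) (he : e ∈ D) (hdf : ¬ Commute d f) (hed : e * d ∈ K) :
    ∃ m ∈ K, m * d * m⁻¹ = e := by
  have hdd := hW.sq d hd
  have hff := hW.sq f hf
  have hee := hW.sq e he
  have hcK : ∀ x ∈ K, ∀ y ∈ K, x * y = y * x := fun x hx y hy =>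
    comm_of_sq1 (hK x hx) (hK y hy) (hK _ (K.mul_mem hx hy))
  have hdi : d⁻¹ = d := inv_eq_of_mul_eq_one_left hdd
  have hfi : f⁻¹ = f := inv_eq_of_mul_eq_one_left hff
  have hei : e⁻¹ = e := inv_eq_of_mul_eq_one_left hee
  have h3 := hW.cube d hd f hf hdf
  have hK2 : IsPGroup 2 K := by
    intro x
    refine ⟨1, ?_⟩
    apply Subtype.ext
    simp [pow_two, hK _ x.2]
  have hef : ¬ Commute e f := wt_not_commute_of_congr hW hK2 hd hf he hdf hed
  have h3' := hW.cube e he f hf hef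
  -- e and d commute
  have hedc : e * d = d * e := comm_of_sq1 hee hdd (hK _ hed)
  set v := d * e with hv
  have hvK : v ∈ K := by
    rw [← hedc]; exact hed
  have hvv : v⁻¹ = v := inv_eq_of_mul_eq_one_left (hK v hvK)
  have hee' : e = d * v := by rw [hv, ← mul_assoc, hdd, one_mul]
  have hvd : d * v * d = v := by
    rw [← hedc]
    calc d * (e * d) * d = d * e * (d * d) := by group
      _ = d * e := by rw [hdd, mul_one]
      _ = e * d := hedc.symm
  set v₁ := d * f * v * (f * d) with hv₁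
  set v₂ := f * d * v * (d * f) with hv₂
  have hv₁K : v₁ ∈ K := by
    have := hnK.conj_mem v hvK (d * f)
    rwa [mul_inv_rev, hfi, hdi] at this
  have hv₂K : v₂ ∈ K := by
    have := hnK.conj_mem v hvK (f * d)
    rwa [mul_inv_rev, hfi, hdi] at this
  have key : d * f * d * f = f * d := by
    have h4 : (d * f) * ((d * f) * (d * f)) = 1 := by
      calc (d * f) * ((d * f) * (d * f)) = (d * f) ^ 3 := by simp only [pow_succ, pow_zero, one_mul, mul_assoc]
        _ = 1 := h3
    have h5 : (d * f) * (d * f) = (d * f)⁻¹ := eq_inv_of_mul_eq_one_right h4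
    rw [mul_inv_rev, hfi, hdi] at h5
    rw [← h5]; group
  have hN : v₂ * v₁ * v = 1 := by
    have h4 : (e * f) ^ 3 = f * (v₂ * v₁ * v) * f := by
      rw [hee', hv₁, hv₂, pow_succ, pow_two]
      calc d * v * f * (d * v * f) * (d * v * f) = d * v * (f * d) * v * f * d * v * f := by group
        _ = d * v * (d * f * d * f) * v * f * d * v * f := by rw [key]
        _ = (f * f) * d * v * (d * f * d * f) * v * f * d * v * f := by rw [hff, one_mul]
        _ = _ := by group
    rw [h3'] at h4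
    have h5 : v₂ * v₁ * v = f * 1 * f := by
      rw [h4]
      calc v₂ * v₁ * v = (f * f) * (v₂ * v₁ * v) * (f * f) := by rw [hff]; group
        _ = _ := by group
    rw [h5, mul_one, hff]
  have hd1 : d * v₁ * d = v₂ := by
    have h4 : d * v₁ * d = (d * d) * f * v * f * (d * d) := by rw [hv₁]; group
    rw [h4, hdd, one_mul, mul_one, hv₂]
    nth_rewrite 1 [← hvd]
    group
  refine ⟨v₁, hv₁K, ?_⟩
  have hv1i : v₁⁻¹ = v₁ := inv_eq_of_mul_eq_one_left (hK v₁ hv₁K)
  rw [hv1i]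
  have h12 : v₁ * v₂ = v := by
    have h4 : v₂ * v₁ = v⁻¹ := eq_inv_of_mul_eq_one_left hN
    rw [hcK v₁ hv₁K v₂ hv₂K, h4, hvv]
  calc v₁ * d * v₁ = v₁ * (d * v₁ * d) * d := by
        calc v₁ * d * v₁ = v₁ * d * v₁ * (d * d) := by rw [hdd, mul_one]
          _ = _ := by group
    _ = v₁ * v₂ * d := by rw [hd1]
    _ = v * d := by rw [h12]
    _ = e := by rw [← hedc]; calc e * d * d = e * (d * d) := by group
                                       _ = e := by rw [hdd, mul_one]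

/-- A 3-group acting on a `K`-orbit, `K` a 2-group, has a fixed point. -/
theorem exists_fixed_in_orbit [Finite G] {K C : Subgroup G} (hK : IsPGroup 2 K) (hC : IsPGroup 3 C) (d : G)
    (hinv : ∀ c ∈ C, ∀ m ∈ K, ∃ n ∈ K, c * (m * d * m⁻¹) * c⁻¹ = n * d * n⁻¹) :
    ∃ m ∈ K, ∀ c ∈ C, c * (m * d * m⁻¹) * c⁻¹ = m * d * m⁻¹ := by
  classical
  letI : MulAction K G := MulAction.compHom G ((MulAut.conj (G := G)).comp K.subtype)
  have hsm : ∀ (m : K) (x : G), m • x = (m : G) * x * (m : G)⁻¹ := fun m x => rfl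
  let W : Set G := MulAction.orbit K d
  have hmemW : ∀ e : G, e ∈ W ↔ ∃ m ∈ K, m * d * m⁻¹ = e := by
    intro e
    constructor
    · rintro ⟨m, rfl⟩
      exact ⟨m, m.2, (hsm m d).symm⟩
    · rintro ⟨m, hm, rfl⟩
      exact ⟨⟨m, hm⟩, rfl⟩
  have hcW : ∀ c ∈ C, ∀ e ∈ W, c * e * c⁻¹ ∈ W := by
    intro c hc e he
    obtain ⟨m, hm, rfl⟩ := (hmemW e).1 he
    obtain ⟨n, hn, h⟩ := hinv c hc m hm
    rw [h]
    exact (hmemW _).2 ⟨n, hn, rfl⟩
  letI : MulAction C W :=
    { smul := fun c e => ⟨(c : G) * e * (c : G)⁻¹, hcW c c.2 e e.2⟩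
      one_smul := fun e => Subtype.ext (by
        show ((1 : C) : G) * (e : G) * ((1 : C) : G)⁻¹ = e
        simp)
      mul_smul := fun a b e => Subtype.ext (by
        show ((a * b : C) : G) * (e : G) * ((a * b : C) : G)⁻¹
          = (a : G) * ((b : G) * (e : G) * (b : G)⁻¹) * (a : G)⁻¹
        simp only [Subgroup.coe_mul]
        group) }
  obtain ⟨n, hn⟩ := hK.card_orbit d
  have h3 : ¬ 3 ∣ Nat.card W := by
    show ¬ 3 ∣ Nat.card (MulAction.orbit K d)
    rw [hn]
    intro h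
    have := Nat.Prime.dvd_of_dvd_pow Nat.prime_three h
    omega
  obtain ⟨e, he⟩ := hC.nonempty_fixed_point_of_prime_not_dvd_card W h3
  obtain ⟨m, hm, hme⟩ := (hmemW _).1 e.2
  refine ⟨m, hm, fun c hc => ?_⟩
  have h4 : (⟨c, hc⟩ : C) • e = e := he ⟨c, hc⟩
  have h5 := congrArg Subtype.val h4
  have h6 : c * (e : G) * c⁻¹ = e := h5
  rw [hme]
  exact h6

/-- Pairing off along an involution, modulo a subgroup. -/
theorem pairing_prod {A X : Type*} [CommGroup A] [Fintype X] (L : Subgroup A) (α : X → X)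
    (hα : ∀ x, α (α x) = x) (z : X → A) (hz : ∀ x, z x * z (α x) ∈ L)
    (hfix : ∀ x, α x = x → z x ∈ L) : ∏ x, z x ∈ L := by
  classical
  have h : ∏ x, QuotientGroup.mk' L (z x) = 1 := by
    refine Finset.prod_involution (fun x _ => α x) ?_ ?_ ?_ ?_
    · intro x _
      rw [← map_mul]
      exact (QuotientGroup.eq_one_iff _).2 (hz x)
    · intro x _ hx hax
      exact hx ((QuotientGroup.eq_one_iff _).2 (hfix x hax))
    · intro x _
      exact Finset.mem_univ _
    · intro x _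
      exact hα x
  rw [← map_prod] at h
  exact (QuotientGroup.eq_one_iff _).1 h

/-- The abstract averaging: odd order, exponent two. -/
theorem pairing_main {A X : Type*} [CommGroup A] [Fintype X] (hA : ∀ a : A, a * a = 1)
    (hodd : Odd (Fintype.card X)) (L : Subgroup A) (α : X → X) (hα : ∀ x, α (α x) = x) (y : X → A)
    (hy : ∀ x, y (α x) * y x ∈ L) (k : A) (hfix : ∀ x, α x = x → y x = k) (hσ : ∏ x, y x ∈ L) :
    k ∈ L := by
  have h1 : ∏ x, (y x * k) ∈ L := by
    refine pairing_prod L α hα _ ?_ ?_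
    · intro x
      have h2 : y x * k * (y (α x) * k) = y (α x) * y x := by
        calc y x * k * (y (α x) * k) = y (α x) * y x * (k * k) := by
              rw [mul_mul_mul_comm, mul_comm (y x)]
          _ = _ := by rw [hA, mul_one]
      rw [h2]
      exact hy x
    · intro x hx
      rw [hfix x hx, hA]
      exact L.one_mem
  rw [Finset.prod_mul_distrib, Finset.prod_const, Finset.card_univ] at h1
  obtain ⟨n, hn⟩ := hodd
  have h2 : k ^ Fintype.card X = k := by
    rw [hn, pow_succ, pow_mul, pow_two, hA, one_pow, one_mul]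
  rw [h2] at h1
  have h3 := L.mul_mem (L.inv_mem hσ) h1
  rwa [inv_mul_cancel_left] at h3

theorem inter_eq_one_of_three {K P : Subgroup G} (hK : ∀ x ∈ K, x * x = 1) (hP : IsPGroup 3 P)
    {x : G} (hxP : x ∈ P) (hxK : x ∈ K) : x = 1 := by
  obtain ⟨n, hn⟩ := hP ⟨x, hxP⟩
  have h1 : x ^ 3 ^ n = 1 := by
    have := congrArg (fun z : P => (z : G)) hn
    simpa using this
  have h2 : x ^ 2 = 1 := by rw [pow_two]; exact hK x hxK
  have h3 : orderOf x ∣ Nat.gcd (3 ^ n) 2 :=
    Nat.dvd_gcd (orderOf_dvd_of_pow_eq_one h1) (orderOf_dvd_of_pow_eq_one h2)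
  have h4 : Nat.gcd (3 ^ n) 2 = 1 := Nat.Coprime.pow_left _ (by norm_num)
  rw [h4, Nat.dvd_one, orderOf_eq_one_iff] at h3
  exact h3

/-- The transfer step: `k₁` lies in `[K,t] C_K(P)`. -/
theorem step_transfer [Finite G] {K P : Subgroup G} [hnK : K.Normal] (hK : ∀ x ∈ K, x * x = 1)
    (hP : IsPGroup 3 P) {t k₁ : G} (ht : ∀ x ∈ P, t * x * t⁻¹ ∈ P) (ht2 : t * t ∈ K)
    (ht2c : ∀ x ∈ P, t * t * x = x * (t * t)) (hk₁ : k₁ ∈ K) (hinv : t * k₁ * (t * k₁) = 1)
    (hfix : ∀ u ∈ P, t * u * t⁻¹ = u → u * k₁ = k₁ * u) :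
    ∃ m ∈ K, ∃ c ∈ K, (∀ x ∈ P, c * x = x * c) ∧ k₁ = m * (t * m * t⁻¹) * c := by
  classical
  haveI : Fintype P := Fintype.ofFinite P
  have hcK : ∀ x ∈ K, ∀ y ∈ K, x * y = y * x := fun x hx y hy =>
    comm_of_sq1 (hK x hx) (hK y hy) (hK _ (K.mul_mem hx hy))
  letI cg : CommGroup K :=
    { (inferInstance : Group K) with
      mul_comm := fun a b => Subtype.ext (hcK a a.2 b b.2) }
  have htK : ∀ m ∈ K, t * m * t⁻¹ ∈ K := fun m hm => hnK.conj_mem m hm t
  let L : Subgroup K :=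
    { carrier := {z | ∃ m ∈ K, ∃ c ∈ K, (∀ x ∈ P, c * x = x * c) ∧ (z : G) = m * (t * m * t⁻¹) * c}
      mul_mem' := by
        rintro a b ⟨m, hm, c, hc, hcP, ha⟩ ⟨m', hm', c', hc', hcP', hb⟩
        refine ⟨m * m', K.mul_mem hm hm', c * c', K.mul_mem hc hc', ?_, ?_⟩
        · intro x hx
          rw [mul_assoc, hcP' x hx, ← mul_assoc, hcP x hx, mul_assoc]
        · show (a : G) * (b : G) = _
          rw [ha, hb]
          have e1 : t * (m * m') * t⁻¹ = (t * m * t⁻¹) * (t * m' * t⁻¹) := by group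
          rw [e1]
          have h1 := htK m hm
          have h2 := htK m' hm'
          calc m * (t * m * t⁻¹) * c * (m' * (t * m' * t⁻¹) * c')
              = m * ((t * m * t⁻¹) * c * m') * ((t * m' * t⁻¹)) * c' := by group
            _ = m * (m' * ((t * m * t⁻¹) * c)) * ((t * m' * t⁻¹)) * c' := by
                rw [hcK _ (K.mul_mem h1 hc) m' hm']
            _ = m * m' * (t * m * t⁻¹) * (c * (t * m' * t⁻¹)) * c' := by group
            _ = m * m' * (t * m * t⁻¹) * ((t * m' * t⁻¹) * c) * c' := by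
                rw [hcK c hc _ h2]
            _ = _ := by group
      one_mem' := ⟨1, K.one_mem, 1, K.one_mem, by simp, by simp⟩
      inv_mem' := by
        rintro a ⟨m, hm, c, hc, hcP, ha⟩
        refine ⟨m, hm, c, hc, hcP, ?_⟩
        have h1 : ((a⁻¹ : K) : G) = (a : G) := by
          rw [Subgroup.coe_inv]
          exact inv_eq_of_mul_eq_one_left (hK a a.2)
        rw [h1, ha] }
  have hA : ∀ a : K, a * a = 1 := fun a => Subtype.ext (hK a a.2)
  let α : P → P := fun u => ⟨t * u * t⁻¹, ht u u.2⟩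
  have hα : ∀ u, α (α u) = u := by
    intro u
    apply Subtype.ext
    show t * (t * (u : G) * t⁻¹) * t⁻¹ = u
    have h1 := ht2c u u.2
    calc t * (t * (u : G) * t⁻¹) * t⁻¹ = (t * t * u) * (t⁻¹ * t⁻¹) := by group
      _ = u * (t * t) * (t⁻¹ * t⁻¹) := by rw [h1]
      _ = u := by group
  let y : P → K := fun u => ⟨(u : G) * k₁ * (u : G)⁻¹, hnK.conj_mem k₁ hk₁ u⟩
  -- relation for `t`
  have hs : (t * t)⁻¹ = t * t := inv_eq_of_mul_eq_one_left (hK _ ht2)
  have hrel : t⁻¹ * k₁ * t = t * t * k₁ := by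
    have hk1i : k₁⁻¹ = k₁ := inv_eq_of_mul_eq_one_left (hK _ hk₁)
    have h1 : k₁ * t = t⁻¹ * k₁ := by
      have h2 : t * k₁ * t = k₁⁻¹ := eq_inv_of_mul_eq_one_left (by
        calc t * k₁ * t * k₁ = t * k₁ * (t * k₁) := by group
          _ = 1 := hinv)
      rw [hk1i] at h2
      calc k₁ * t = t⁻¹ * (t * k₁ * t) := by group
        _ = _ := by rw [h2]
    calc t⁻¹ * k₁ * t = t⁻¹ * (k₁ * t) := by group
      _ = (t * t)⁻¹ * k₁ := by rw [h1]; group
      _ = _ := by rw [hs]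
  have hy : ∀ u, y (α u) * y u ∈ L := by
    intro u
    refine ⟨(y u : G), (y u).2, t * t, ht2, ht2c, ?_⟩
    show (t * (u : G) * t⁻¹) * k₁ * (t * (u : G) * t⁻¹)⁻¹ * ((u : G) * k₁ * (u : G)⁻¹)
      = ((u : G) * k₁ * (u : G)⁻¹) * (t * ((u : G) * k₁ * (u : G)⁻¹) * t⁻¹) * (t * t)
    have hyK : (u : G) * k₁ * (u : G)⁻¹ ∈ K := (y u).2
    set w := (u : G) * k₁ * (u : G)⁻¹ with hw
    have h1 : (t * (u : G) * t⁻¹) * k₁ * (t * (u : G) * t⁻¹)⁻¹ = (t * t) * (t * w * t⁻¹) := by
      calc (t * (u : G) * t⁻¹) * k₁ * (t * (u : G) * t⁻¹)⁻¹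
          = t * (u : G) * (t⁻¹ * k₁ * t) * (u : G)⁻¹ * t⁻¹ := by group
        _ = t * ((u : G) * (t * t)) * k₁ * (u : G)⁻¹ * t⁻¹ := by rw [hrel]; group
        _ = t * ((t * t) * (u : G)) * k₁ * (u : G)⁻¹ * t⁻¹ := by rw [ht2c u u.2]
        _ = (t * t) * (t * w * t⁻¹) := by rw [hw]; group
    rw [h1]
    have h2 := htK w hyK
    rw [hcK (t * t) ht2 _ h2, mul_assoc, hcK (t * t) ht2 w hyK, ← mul_assoc, hcK _ h2 w hyK]
  have hσ : ∏ u, y u ∈ L := by
    refine ⟨1, K.one_mem, ((∏ u, y u : K) : G), (∏ u, y u : K).2, ?_, by simp⟩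
    intro v hv
    let φ : K →* K :=
      { toFun := fun a => ⟨v * a * v⁻¹, hnK.conj_mem a a.2 v⟩
        map_one' := Subtype.ext (by
          show v * ((1 : K) : G) * v⁻¹ = ((1 : K) : G)
          simp)
        map_mul' := fun a b => Subtype.ext (by
          show v * ((a * b : K) : G) * v⁻¹ = (v * (a : G) * v⁻¹) * (v * (b : G) * v⁻¹)
          rw [show ((a * b : K) : G) = (a : G) * (b : G) from rfl]
          group) }
    have h1 : φ (∏ u, y u) = ∏ u, y u := by
      rw [map_prod]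
      have h2 : ∀ u : P, φ (y u) = y (⟨v, hv⟩ * u) := by
        intro u
        apply Subtype.ext
        show v * ((u : G) * k₁ * (u : G)⁻¹) * v⁻¹ = ((⟨v, hv⟩ * u : P) : G) * k₁ * ((⟨v, hv⟩ * u : P) : G)⁻¹
        rw [Subgroup.coe_mul]
        group
      simp only [h2]
      exact Equiv.prod_comp (Equiv.mulLeft (⟨v, hv⟩ : P)) y
    have h3 : v * ((∏ u, y u : K) : G) * v⁻¹ = ((∏ u, y u : K) : G) := congrArg Subtype.val h1
    calc ((∏ u, y u : K) : G) * v = (v * ((∏ u, y u : K) : G) * v⁻¹) * v := by rw [h3]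
      _ = _ := by group
  have hodd : Odd (Fintype.card P) := by
    obtain ⟨n, hn⟩ := IsPGroup.iff_card.1 hP
    rw [← Nat.card_eq_fintype_card, hn]
    exact Odd.pow (by decide)
  have hmain : (⟨k₁, hk₁⟩ : K) ∈ L := by
    refine pairing_main hA hodd L α hα y hy _ ?_ hσ
    intro u hu
    apply Subtype.ext
    show (u : G) * k₁ * (u : G)⁻¹ = k₁
    have h1 : t * (u : G) * t⁻¹ = u := congrArg Subtype.val hu
    rw [hfix u u.2 h1]
    group
  obtain ⟨m, hm, c, hc, hcP, h⟩ := hmain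
  exact ⟨m, hm, c, hc, hcP, h⟩

/-- The step in the elementary abelian case. -/
theorem wt_step [Finite G] {D : Set G} (hW : WT D) {K P : Subgroup G} [hnK : K.Normal]
    (hK : ∀ x ∈ K, x * x = 1) (hP : IsPGroup 3 P) {d f k : G} (hd : d ∈ D) (hf : f ∈ D)
    (hdf : ¬ Commute d f) (hk : k ∈ K) (ht : ∀ x ∈ P, (k * d) * x * (k * d)⁻¹ ∈ P) :
    ∃ t' ∈ D, t' * d ∈ K ∧ ∀ x ∈ P, t' * x * t'⁻¹ ∈ P := by
  have hdd := hW.sq d hd
  have hdi : d⁻¹ = d := inv_eq_of_mul_eq_one_left hdd
  have hcK : ∀ x ∈ K, ∀ y ∈ K, x * y = y * x := fun x hx y hy =>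
    comm_of_sq1 (hK x hx) (hK y hy) (hK _ (K.mul_mem hx hy))
  have hKi : ∀ x ∈ K, x⁻¹ = x := fun x hx => inv_eq_of_mul_eq_one_left (hK x hx)
  have hK2 : IsPGroup 2 K := by
    intro x
    refine ⟨1, ?_⟩
    apply Subtype.ext
    simp [pow_two, hK _ x.2]
  have hdK : ∀ x ∈ K, d * x * d ∈ K := by
    intro x hx
    have := hnK.conj_mem x hx d
    rwa [hdi] at this
  set t := k * d with htdef
  have ht2 : t * t ∈ K := by
    have : t * t = k * (d * k * d) := by rw [htdef]; group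
    rw [this]
    exact K.mul_mem hk (hdK k hk)
  have hPK : ∀ x ∈ P, x ∈ K → x = 1 := fun x hx hx' => inter_eq_one_of_three hK hP hx hx'
  have ht2c : ∀ x ∈ P, t * t * x = x * (t * t) := by
    intro x hx
    have h1 : (t * t) * x * (t * t)⁻¹ * x⁻¹ ∈ P := by
      have h2 := ht _ (ht x hx)
      have h3 : t * (t * x * t⁻¹) * t⁻¹ = (t * t) * x * (t * t)⁻¹ := by group
      rw [h3] at h2
      exact P.mul_mem h2 (P.inv_mem hx)
    have h2 : (t * t) * x * (t * t)⁻¹ * x⁻¹ ∈ K := by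
      have h3 : (t * t) * x * (t * t)⁻¹ * x⁻¹ = (t * t) * (x * (t * t)⁻¹ * x⁻¹) := by group
      rw [h3]
      exact K.mul_mem ht2 (hnK.conj_mem _ (K.inv_mem ht2) x)
    have h3 := hPK _ h1 h2
    have h4 : (t * t) * x * (t * t)⁻¹ = x := by
      rwa [mul_inv_eq_one] at h3
    calc t * t * x = (t * t) * x * (t * t)⁻¹ * (t * t) := by group
      _ = x * (t * t) := by rw [h4]
  -- the centralizer of `t` in `P`
  let C : Subgroup G := P ⊓ Subgroup.centralizer {t}
  have hCP : C ≤ P := inf_le_left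
  have hC : IsPGroup 3 C := hP.to_le hCP
  have hCt : ∀ c ∈ C, c * t = t * c := by
    intro c hc
    have := Subgroup.mem_centralizer_iff.1 hc.2 t rfl
    exact this.symm
  have hcd : ∀ c ∈ C, c * d * c⁻¹ * d ∈ K := by
    intro c hc
    have h1 : d = k⁻¹ * t := by rw [htdef]; group
    have h2 : c * d * c⁻¹ = (c * k⁻¹ * c⁻¹) * t := by
      rw [h1]
      calc c * (k⁻¹ * t) * c⁻¹ = (c * k⁻¹ * c⁻¹) * (c * t) * c⁻¹ := by group
        _ = (c * k⁻¹ * c⁻¹) * (t * c) * c⁻¹ := by rw [hCt c hc]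
        _ = _ := by group
    rw [h2, htdef]
    have h3 : c * k⁻¹ * c⁻¹ * (k * d) * d = (c * k⁻¹ * c⁻¹) * k * (d * d) := by group
    rw [h3, hdd, mul_one]
    exact K.mul_mem (hnK.conj_mem _ (K.inv_mem hk) c) hk
  have hinv : ∀ c ∈ C, ∀ m ∈ K, ∃ n ∈ K, c * (m * d * m⁻¹) * c⁻¹ = n * d * n⁻¹ := by
    intro c hc m hm
    have heD : c * (m * d * m⁻¹) * c⁻¹ ∈ D := hW.conj c _ (hW.conj m d hd)
    suffices hh : c * (m * d * m⁻¹) * c⁻¹ * d ∈ K by
      obtain ⟨n, hn, h⟩ := wt_orbit hW hK hd hf heD hdf hh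
      exact ⟨n, hn, h.symm⟩
    have h1 : c * (m * d * m⁻¹) * c⁻¹ * d
        = (c * m * c⁻¹) * (c * d * c⁻¹ * d) * (d * (c * m⁻¹ * c⁻¹) * d) := by
      calc c * (m * d * m⁻¹) * c⁻¹ * d
          = (c * m * c⁻¹) * (c * d * c⁻¹) * (d * d) * (c * m⁻¹ * c⁻¹) * d := by
            rw [hdd]; group
        _ = _ := by group
    rw [h1]
    exact K.mul_mem (K.mul_mem (hnK.conj_mem _ hm c) (hcd c hc))
      (hdK _ (hnK.conj_mem _ (K.inv_mem hm) c))
  obtain ⟨m₀, hm₀, hfx⟩ := exists_fixed_in_orbit hK2 hC d hinv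
  set d₁ := m₀ * d * m₀⁻¹ with hd₁
  have hd₁D : d₁ ∈ D := hW.conj m₀ d hd
  have hd₁d₁ := hW.sq d₁ hd₁D
  set k₁ := t⁻¹ * d₁ with hk₁
  have hk₁K : k₁ ∈ K := by
    have h1 : k₁ = (d * (k⁻¹ * m₀) * d) * m₀⁻¹ := by
      rw [hk₁, hd₁, htdef, mul_inv_rev, hdi]
      group
    rw [h1]
    exact K.mul_mem (hdK _ (K.mul_mem (K.inv_mem hk) hm₀)) (K.inv_mem hm₀)
  have htk₁ : t * k₁ = d₁ := by rw [hk₁]; group
  have hfix' : ∀ u ∈ P, t * u * t⁻¹ = u → u * k₁ = k₁ * u := by
    intro u hu hut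
    have hutc : u * t = t * u := by
      calc u * t = (t * u * t⁻¹) * t := by rw [hut]
        _ = t * u := by group
    have huC : u ∈ C := ⟨hu, by
      show u ∈ Subgroup.centralizer {t}
      rw [Subgroup.mem_centralizer_iff]
      intro h hh
      rw [Set.mem_singleton_iff.1 hh]
      exact hutc.symm⟩
    have h1 : u * d₁ = d₁ * u := by
      calc u * d₁ = (u * d₁ * u⁻¹) * u := by group
        _ = d₁ * u := by rw [hfx u huC]
    rw [hk₁]
    calc u * (t⁻¹ * d₁) = (u * t⁻¹) * d₁ := by group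
      _ = (t⁻¹ * u) * d₁ := by
        have : u * t⁻¹ = t⁻¹ * u := by
          calc u * t⁻¹ = t⁻¹ * (t * u) * t⁻¹ := by group
            _ = t⁻¹ * (u * t) * t⁻¹ := by rw [hutc]
            _ = t⁻¹ * u := by group
        rw [this]
      _ = t⁻¹ * (u * d₁) := by group
      _ = t⁻¹ * (d₁ * u) := by rw [h1]
      _ = _ := by group
  have hinv' : t * k₁ * (t * k₁) = 1 := by rw [htk₁]; exact hd₁d₁
  obtain ⟨m, hm, c, hc, hcP, hkk⟩ := step_transfer hK hP (t := t) ht ht2 ht2c hk₁K hinv' hfix'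
  set τ := t * m * t⁻¹ with hτ
  have hτK : τ ∈ K := hnK.conj_mem m hm t
  have hmi := hKi m hm
  have e1 : t * m = τ * t := by rw [hτ]; group
  have e2 : t * τ = m * t := by
    have h1 : t * τ = (t * t) * m * (t * t)⁻¹ * t := by rw [hτ]; group
    rw [h1, hcK (t * t) ht2 m hm]
    group
  have ht' : m * d₁ * m⁻¹ = t * c := by
    rw [← htk₁, hkk, hmi]
    have h2 : m * τ * (m * τ) = 1 := hK _ (K.mul_mem hm hτK)
    have e3 : c * m = m * c := hcK c hc m hm
    calc m * (t * (m * τ * c)) * m = m * t * m * τ * (c * m) := by group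
      _ = m * (t * m) * τ * m * c := by rw [e3]; group
      _ = m * (τ * t) * τ * m * c := by rw [e1]
      _ = m * τ * (t * τ) * m * c := by group
      _ = m * τ * (m * t) * m * c := by rw [e2]
      _ = m * τ * m * (t * m) * c := by group
      _ = m * τ * m * (τ * t) * c := by rw [e1]
      _ = (m * τ * (m * τ)) * t * c := by group
      _ = t * c := by rw [h2, one_mul]
  refine ⟨m * d₁ * m⁻¹, hW.conj m d₁ hd₁D, ?_, ?_⟩
  · have h1 : m * d₁ * m⁻¹ * d = (m * m₀) * (d * (m₀⁻¹ * m⁻¹) * d) := by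
      rw [hd₁]; group
    rw [h1]
    exact K.mul_mem (K.mul_mem hm hm₀) (hdK _ (K.mul_mem (K.inv_mem hm₀) (K.inv_mem hm)))
  · intro x hx
    rw [ht']
    have h1 : (t * c) * x * (t * c)⁻¹ = t * (c * x) * c⁻¹ * t⁻¹ := by group
    rw [h1, hcP x hx]
    have h2 : t * (x * c) * c⁻¹ * t⁻¹ = t * x * t⁻¹ := by group
    rw [h2]
    exact ht x hx

/-- Correcting `d` modulo `K` to normalize a Sylow subgroup. -/
theorem wt_prep [Finite G] {K : Subgroup G} [hnK : K.Normal] (P : Sylow 3 G) {d : G}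
    (hx : ∀ x ∈ (P : Subgroup G), d * x * d⁻¹ ∈ (P : Subgroup G) ⊔ K) :
    ∃ k ∈ K, ∀ x ∈ (P : Subgroup G), (k * d) * x * (k * d)⁻¹ ∈ (P : Subgroup G) := by
  let Q : Subgroup G := (P : Subgroup G).map (MulAut.conj d).toMonoidHom
  have hQ : IsPGroup 3 Q := P.isPGroup'.map _
  have hQC : Q ≤ (P : Subgroup G) ⊔ K := by
    rintro _ ⟨x, hx', rfl⟩
    exact hx x hx'
  obtain ⟨c, hc, hcx⟩ := H08.exists_conj_into_sylow_of_le ((P : Subgroup G) ⊔ K) P le_sup_left Q hQ hQC
  obtain ⟨p, hp, k, hk, rfl⟩ := Subgroup.mem_sup_of_normal_right.1 hc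
  refine ⟨k, hk, fun x hx' => ?_⟩
  have h1 := hcx (d * x * d⁻¹) ⟨x, hx', rfl⟩
  have h2 : (k * d) * x * (k * d)⁻¹ = p⁻¹ * ((p * k) * (d * x * d⁻¹) * (p * k)⁻¹) * p := by group
  rw [h2]
  exact P.1.mul_mem (P.1.mul_mem (P.1.inv_mem hp) h1) hp

theorem wt_image {D : Set G} (hW : WT D) {H : Type*} [Group H] (π : G →* H)
    (hπ : Function.Surjective π) : WT (π '' D) := by
  refine ⟨?_, ?_, ?_⟩
  · rintro _ ⟨a, ha, rfl⟩
    rw [← map_mul, hW.sq a ha, map_one]
  · rintro _ ⟨a, ha, rfl⟩ _ ⟨b, hb, rfl⟩ hn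
    have h1 : ¬ Commute a b := fun hc => hn (hc.map π)
    rw [← map_mul, ← map_pow, hW.cube a ha b hb h1, map_one]
  · rintro g _ ⟨a, ha, rfl⟩
    obtain ⟨g₀, rfl⟩ := hπ g
    exact ⟨g₀ * a * g₀⁻¹, hW.conj g₀ a ha, by simp⟩

/-- The subgroup generated by squares. -/
def sqSub (K : Subgroup G) : Subgroup G := Subgroup.closure {y | ∃ x ∈ K, y = x * x}

theorem sqSub_le (K : Subgroup G) : sqSub K ≤ K := by
  rw [sqSub, Subgroup.closure_le]
  rintro _ ⟨x, hx, rfl⟩
  exact K.mul_mem hx hx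

theorem sq_mem_sqSub {K : Subgroup G} {x : G} (hx : x ∈ K) : x * x ∈ sqSub K :=
  Subgroup.subset_closure ⟨x, hx, rfl⟩

theorem sqSub_normal (K : Subgroup G) [hn : K.Normal] : (sqSub K).Normal := by
  constructor
  intro x hx g
  induction hx using Subgroup.closure_induction with
  | mem y hy =>
      obtain ⟨z, hz, rfl⟩ := hy
      have h1 : g * (z * z) * g⁻¹ = (g * z * g⁻¹) * (g * z * g⁻¹) := by group
      rw [h1]
      exact sq_mem_sqSub (hn.conj_mem z hz g)
  | one => simp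
  | mul y z _ _ ihy ihz =>
      have h1 : g * (y * z) * g⁻¹ = (g * y * g⁻¹) * (g * z * g⁻¹) := by group
      rw [h1]
      exact Subgroup.mul_mem _ ihy ihz
  | inv y _ ih =>
      have h1 : g * y⁻¹ * g⁻¹ = (g * y * g⁻¹)⁻¹ := by group
      rw [h1]
      exact Subgroup.inv_mem _ ih

theorem sqSub_card_lt [Finite G] {K : Subgroup G} (hK : IsPGroup 2 K) (hne : K ≠ ⊥) :
    Nat.card (sqSub K) < Nat.card K := by
  obtain ⟨n, hn⟩ := IsPGroup.iff_card.1 hK
  have hn0 : n ≠ 0 := by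
    rintro rfl
    apply hne
    exact Subgroup.eq_bot_of_card_eq K (by simpa using hn)
  obtain ⟨a, rfl⟩ := Nat.exists_eq_succ_of_ne_zero hn0
  have hdvd : 2 ^ a ∣ Nat.card K := by
    rw [hn]
    exact pow_dvd_pow 2 (Nat.le_succ a)
  obtain ⟨M, hM⟩ := Sylow.exists_subgroup_card_pow_prime (G := K) 2 hdvd
  have hidx : M.index = 2 := by
    have h1 := Subgroup.index_mul_card M
    rw [hM, hn, Nat.succ_eq_add_one, pow_succ] at h1
    have h2 : 0 < 2 ^ a := by positivity
    nlinarith [Nat.eq_of_mul_eq_mul_right h2 (by rw [h1]; ring : M.index * 2 ^ a = 2 * 2 ^ a)]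
  have hle : sqSub K ≤ M.map K.subtype := by
    rw [sqSub, Subgroup.closure_le]
    rintro _ ⟨x, hx, rfl⟩
    exact ⟨⟨x, hx⟩ * ⟨x, hx⟩, Subgroup.mul_self_mem_of_index_two hidx _, rfl⟩
  have h1 := Subgroup.card_le_of_le hle
  rw [Subgroup.card_map_of_injective K.subtype_injective, hM] at h1
  rw [hn]
  refine lt_of_le_of_lt h1 ?_
  exact Nat.pow_lt_pow_right (by norm_num) (Nat.lt_succ_self a)

/-- The chain argument. -/
theorem wt_chain [Finite G] {D : Set G} (hW : WT D) (P : Sylow 3 G) :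
    ∀ (n : ℕ) (K : Subgroup G), Nat.card K = n → K.Normal → IsPGroup 2 K →
      ∀ d ∈ D, ∀ f ∈ D, ¬ Commute d f →
        (∀ x ∈ (P : Subgroup G), d * x * d⁻¹ ∈ (P : Subgroup G) ⊔ K) →
        ∃ t ∈ D, ∀ x ∈ (P : Subgroup G), t * x * t⁻¹ ∈ (P : Subgroup G) := by
  intro n
  induction n using Nat.strong_induction_on with
  | _ n ih =>
    intro K hn hKn hK2 d hd f hf hdf hx
    by_cases hbot : K = ⊥
    · subst hbot
      refine ⟨d, hd, fun x hx' => ?_⟩
      have := hx x hx'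
      rwa [sup_bot_eq] at this
    · have hK₁n := sqSub_normal K
      have hK₁le := sqSub_le K
      let π : G →* G ⧸ sqSub K := QuotientGroup.mk' (sqSub K)
      have hπ : Function.Surjective π := QuotientGroup.mk'_surjective _
      have hπker : ∀ x, π x = 1 ↔ x ∈ sqSub K := fun x => QuotientGroup.eq_one_iff x
      have hWq : WT (π '' D) := wt_image hW π hπ
      haveI hKqn : (K.map π).Normal := Subgroup.Normal.map hKn π hπ
      have hKq : ∀ x ∈ K.map π, x * x = 1 := by
        rintro _ ⟨x, hx', rfl⟩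
        rw [← map_mul]
        exact (hπker _).2 (sq_mem_sqSub hx')
      let Pq : Sylow 3 (G ⧸ sqSub K) := P.mapSurjective hπ
      have hPq : (Pq : Subgroup (G ⧸ sqSub K)) = (P : Subgroup G).map π := rfl
      have hnc : ¬ Commute (π d) (π f) := by
        intro hc
        apply hdf
        have h1 : (π d * π f) * (π d * π f) = 1 := by
          have h2 : π d * π f = π f * π d := hc
          calc (π d * π f) * (π d * π f) = π d * (π f * π d) * π f := by group
            _ = π d * (π d * π f) * π f := by rw [h2]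
            _ = π (d * d) * π (f * f) := by simp only [map_mul]; group
            _ = 1 := by rw [hW.sq d hd, hW.sq f hf]; simp
        have h2 : (d * f) * (d * f) ∈ K := by
          apply hK₁le
          rw [← hπker]
          simpa using h1
        obtain ⟨n, hn⟩ := hK2 ⟨_, h2⟩
        have h4 : ((d * f) * (d * f)) ^ (2 ^ n) = 1 := by
          have := congrArg (fun z : K => (z : G)) hn
          simpa using this
        apply wt_commute_of_two_power hW hd hf (k := n + 1)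
        rw [pow_succ', pow_mul, pow_two]
        exact h4
      have hxq : ∀ x ∈ (Pq : Subgroup (G ⧸ sqSub K)),
          π d * x * (π d)⁻¹ ∈ (Pq : Subgroup (G ⧸ sqSub K)) ⊔ K.map π := by
        rw [hPq]
        rintro _ ⟨x, hx', rfl⟩
        rw [← Subgroup.map_sup]
        exact ⟨_, hx x hx', by simp⟩
      obtain ⟨kq, hkq, hkqx⟩ := wt_prep Pq hxq
      obtain ⟨tq, htqD, htqK, htqx⟩ := wt_step hWq hKq Pq.isPGroup' (Set.mem_image_of_mem π hd)
        (Set.mem_image_of_mem π hf) hnc hkq hkqx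
      obtain ⟨t', ht'D, rfl⟩ := htqD
      have ht'K : t' * d ∈ K := by
        obtain ⟨k₂, hk₂, hk₂e⟩ := htqK
        have h1 : k₂⁻¹ * (t' * d) ∈ sqSub K := by
          rw [← hπker, map_mul, map_inv, map_mul]
          rw [show (π k₂) = π t' * π d from hk₂e]
          group
        have h2 := K.mul_mem hk₂ (hK₁le h1)
        rwa [mul_inv_cancel_left] at h2
      have ht'x : ∀ x ∈ (P : Subgroup G), t' * x * t'⁻¹ ∈ (P : Subgroup G) ⊔ sqSub K := by
        intro x hx'
        have h1 : π t' * π x * (π t')⁻¹ ∈ (P : Subgroup G).map π := by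
          rw [← hPq]
          apply htqx
          rw [hPq]
          exact ⟨x, hx', rfl⟩
        obtain ⟨p, hp, hpe⟩ := h1
        have h2 : p⁻¹ * (t' * x * t'⁻¹) ∈ sqSub K := by
          have h5 : π (t' * x * t'⁻¹) = π p := by
            rw [show (π p) = π t' * π x * (π t')⁻¹ from hpe]
            simp
          rw [← hπker, map_mul, map_inv, h5, inv_mul_cancel]
        have h3 : t' * x * t'⁻¹ = p * (p⁻¹ * (t' * x * t'⁻¹)) := by group
        rw [h3]
        exact Subgroup.mul_mem_sup hp h2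
      have hK₁2 : IsPGroup 2 (sqSub K) := hK2.to_le hK₁le
      have hnc' : ¬ Commute t' f := wt_not_commute_of_congr hW hK2 hd hf ht'D hdf ht'K
      exact ih _ (hn ▸ sqSub_card_lt hK2 hbot) (sqSub K) rfl hK₁n hK₁2 t' ht'D f hf hnc' ht'x

/-- Derived subgroup of a group generated by an order-3-product class with nilpotent derived
subgroup: a 3-group. -/
theorem isPGroup_commutator_of_nilpotent [Finite G] {D : Set G} (hgen : Subgroup.closure D = ⊤)
    (hconj : ∀ g : G, ∀ a ∈ D, g * a * g⁻¹ ∈ D) (hsq : ∀ a ∈ D, a * a = 1)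
    (hcl : ∀ a ∈ D, ∀ b ∈ D, ∃ g : G, g * a * g⁻¹ = b)
    (hcube : ∀ a ∈ D, ∀ b ∈ D, (a * b) ^ 3 = 1) (hnil : Group.IsNilpotent (commutator G)) :
    IsPGroup 3 (commutator G) := by
  classical
  obtain ⟨T⟩ : Nonempty (Sylow 3 (commutator G)) := inferInstance
  have hTn : (T : Subgroup (commutator G)).Normal := inferInstance
  -- 3-elements lie in T
  have hT3 : ∀ x : commutator G, x ^ 3 = 1 → x ∈ T := by
    intro x hx
    have h1 : IsPGroup 3 (Subgroup.zpowers x) := by
      rw [IsPGroup.iff_card]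
      have h2 : orderOf x ∣ 3 ^ 1 := by
        rw [pow_one]
        exact orderOf_dvd_of_pow_eq_one hx
      obtain ⟨k, -, hk⟩ := (Nat.dvd_prime_pow Nat.prime_three).1 h2
      exact ⟨k, by rw [Nat.card_zpowers, hk]⟩
    obtain ⟨T', hT'⟩ := h1.exists_le_sylow
    have h2 : x ∈ T' := hT' (Subgroup.mem_zpowers x)
    letI := Sylow.unique_of_normal T hTn
    rwa [Subsingleton.elim T' T] at h2
  let B : Subgroup G := Subgroup.closure {z | ∃ a ∈ D, ∃ b ∈ D, z = a * b}
  have hBn : B.Normal := by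
    constructor
    intro x hx g
    induction hx using Subgroup.closure_induction with
    | mem y hy =>
        obtain ⟨a, ha, b, hb, rfl⟩ := hy
        refine Subgroup.subset_closure ⟨g * a * g⁻¹, hconj g a ha, g * b * g⁻¹, hconj g b hb, ?_⟩
        group
    | one => simp
    | mul y z _ _ ihy ihz =>
        have h1 : g * (y * z) * g⁻¹ = (g * y * g⁻¹) * (g * z * g⁻¹) := by group
        rw [h1]
        exact Subgroup.mul_mem _ ihy ihz
    | inv y _ ih =>
        have h1 : g * y⁻¹ * g⁻¹ = (g * y * g⁻¹)⁻¹ := by group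
        rw [h1]
        exact Subgroup.inv_mem _ ih
  -- G/B abelian
  have hcommB : commutator G ≤ B := by
    rcases D.eq_empty_or_nonempty with hempty | ⟨d, hd⟩
    · have : (⊤ : Subgroup G) = ⊥ := by rw [← hgen, hempty, Subgroup.closure_empty]
      intro x _
      have hx : x ∈ (⊥ : Subgroup G) := this ▸ Subgroup.mem_top x
      rw [Subgroup.mem_bot.1 hx]
      exact B.one_mem
    · haveI := hBn
      let q : G →* G ⧸ B := QuotientGroup.mk' B
      have hq : Function.Surjective q := QuotientGroup.mk'_surjective _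
      have hqe : ∀ e ∈ D, q e = q d := by
        intro e he
        have h1 : e * d ∈ B := Subgroup.subset_closure ⟨e, he, d, hd, rfl⟩
        have h2 : q (e * d) = 1 := (QuotientGroup.eq_one_iff _).2 h1
        rw [map_mul] at h2
        have h3 : q d * q d = 1 := by rw [← map_mul, hsq d hd, map_one]
        calc q e = q e * (q d * q d) := by rw [h3, mul_one]
          _ = (q e * q d) * q d := by group
          _ = q d := by rw [h2, one_mul]
      have htop : Subgroup.zpowers (q d) = ⊤ := by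
        rw [eq_top_iff, ← MonoidHom.range_eq_top.2 hq, MonoidHom.range_eq_map, ← hgen,
          MonoidHom.map_closure, Subgroup.closure_le]
        rintro _ ⟨e, he, rfl⟩
        rw [hqe e he]
        exact Subgroup.mem_zpowers _
      rw [commutator_def, Subgroup.commutator_le]
      intro g _ h _
      rw [← QuotientGroup.eq_one_iff, ← QuotientGroup.mk'_apply]
      show q ⁅g, h⁆ = 1
      rw [map_commutatorElement, commutatorElement_eq_one_iff_mul_comm]
      obtain ⟨i, hi⟩ := Subgroup.mem_zpowers_iff.1 (htop ▸ Subgroup.mem_top (q g))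
      obtain ⟨j, hj⟩ := Subgroup.mem_zpowers_iff.1 (htop ▸ Subgroup.mem_top (q h))
      rw [← hi, ← hj]
      exact (Commute.refl (q d)).zpow_zpow i j
  -- B inside T
  have hBT : ∀ x (hx : x ∈ B), x ∈ commutator G ∧ ∀ hx' : x ∈ commutator G, (⟨x, hx'⟩ : commutator G) ∈ T := by
    intro x hx
    induction hx using Subgroup.closure_induction with
    | mem y hy =>
        obtain ⟨a, ha, b, hb, rfl⟩ := hy
        obtain ⟨g, hg⟩ := hcl a ha b hb
        have h1 : a * b ∈ commutator G := by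
          have h2 : a * b = ⁅a, g⁆ := by
            rw [commutatorElement_def, ← hg, inv_eq_of_mul_eq_one_left (hsq a ha)]
            group
          rw [h2, commutator_def]
          exact Subgroup.commutator_mem_commutator (Subgroup.mem_top _) (Subgroup.mem_top _)
        refine ⟨h1, fun hx' => hT3 _ ?_⟩
        apply Subtype.ext
        simpa using hcube a ha b hb
    | one => exact ⟨Subgroup.one_mem _, fun _ => T.1.one_mem⟩
    | mul y z _ _ ihy ihz =>
        refine ⟨Subgroup.mul_mem _ ihy.1 ihz.1, fun _ => ?_⟩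
        exact T.1.mul_mem (ihy.2 ihy.1) (ihz.2 ihz.1)
    | inv y _ ih =>
        refine ⟨Subgroup.inv_mem _ ih.1, fun _ => ?_⟩
        exact T.1.inv_mem (ih.2 ih.1)
  intro x
  have h1 : x ∈ T := (hBT x (hcommB x.2)).2 x.2
  obtain ⟨n, hn⟩ := T.isPGroup' ⟨x, h1⟩
  refine ⟨n, ?_⟩
  have := congrArg (fun z : T => (z : commutator G)) hn
  simpa using this

end Cfsg.Agent.H08.Fis
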